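import Cfsg.Agent.Lib.Char.Complete
import Mathlib.GroupTheory.Coset.Card

/-!
# Common eigenvectors for abelian subgroups
-/

set_option autoImplicit false

namespace Cfsg.Agent.Lib.CharX.Abelian

open Cfsg Module
open Cfsg.Agent.Lib.Char.Basic Cfsg.Agent.Lib.Char.Decomp Cfsg.Agent.Lib.Char.Ortho
open Cfsg.Agent.Lib.Char.Complete

universe u v

variable {G : Type u} [Group G] {V : Type v} [AddCommGroup V] [Module ℂ V]

/-- An abelian subgroup of a finite group has a common eigenvector in every nonzero
representation. -/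
theorem exists_common_eigenvector [Finite G] [FiniteDimensional ℂ V] [Nontrivial V]
    (ρ : Representation ℂ G V) (A : Subgroup G) (hA : ∀ a ∈ A, ∀ b ∈ A, a * b = b * a) :
    ∃ v : V, v ≠ 0 ∧ ∀ a ∈ A, ∃ c : ℂ, ρ a v = c • v := by
  obtain ⟨U, hU⟩ := exists_irreducible_subrep (ρ.comp A.subtype)
  have hfd := finiteDimensional_subrep U
  have hnt := nontrivial_of_isIrreducible hU
  obtain ⟨u, hu⟩ := exists_ne (0 : U.toSubmodule)
  refine ⟨u, fun h => hu (Subtype.ext h), fun a ha => ?_⟩
  obtain ⟨c, hc⟩ := schur_scalar U.toRepresentation hU (U.toRepresentation ⟨a, ha⟩) (fun g => by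
    have hcomm : (⟨a, ha⟩ : A) * g = g * ⟨a, ha⟩ := Subtype.ext (hA a ha g g.2)
    rw [← Module.End.mul_eq_comp, ← Module.End.mul_eq_comp, ← map_mul, ← map_mul, hcomm])
  refine ⟨c, ?_⟩
  have := congrArg Subtype.val (LinearMap.congr_fun hc u)
  exact this

/-- The span of an orbit. -/
noncomputable def orbitSpan (ρ : Representation ℂ G V) (v : V) : Subrepresentation ρ where
  toSubmodule := Submodule.span ℂ (Set.range fun g : G => ρ g v)
  apply_mem_toSubmodule g := by
    intro x hx
    have : (Submodule.span ℂ (Set.range fun g : G => ρ g v)).map (ρ g)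
        ≤ Submodule.span ℂ (Set.range fun g : G => ρ g v) := by
      rw [Submodule.map_span, Submodule.span_le]
      rintro _ ⟨_, ⟨h, rfl⟩, rfl⟩
      refine Submodule.subset_span ⟨g * h, ?_⟩
      simp
    exact this (Submodule.mem_map_of_mem hx)

/-- In an irreducible representation, the orbit of a nonzero vector spans. -/
theorem span_orbit_eq_top (ρ : Representation ℂ G V) (hρ : ρ.IsIrreducible) {v : V} (hv : v ≠ 0) :
    Submodule.span ℂ (Set.range fun g : G => ρ g v) = ⊤ := by
  have h := hρ.eq_bot_or_eq_top (orbitSpan ρ v)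
  rcases h with h | h
  · exfalso
    have h2 : Submodule.span ℂ (Set.range fun g : G => ρ g v) = ⊥ := congrArg Subrepresentation.toSubmodule h
    have h3 : v ∈ Submodule.span ℂ (Set.range fun g : G => ρ g v) :=
      Submodule.subset_span ⟨1, by simp⟩
    rw [h2, Submodule.mem_bot] at h3
    exact hv h3
  · exact congrArg Subrepresentation.toSubmodule h

/-- The degree of an irreducible representation is at most the index of an abelian subgroup. -/
theorem finrank_le_index_of_abelian [Finite G] [FiniteDimensional ℂ V]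
    (ρ : Representation ℂ G V) (hρ : ρ.IsIrreducible) (A : Subgroup G)
    (hA : ∀ a ∈ A, ∀ b ∈ A, a * b = b * a) : finrank ℂ V ≤ A.index := by
  classical
  have hnt := nontrivial_of_isIrreducible hρ
  obtain ⟨v, hv, hc⟩ := exists_common_eigenvector ρ A hA
  have : Finite (G ⧸ A) := inferInstance
  let _ : Fintype (G ⧸ A) := Fintype.ofFinite _
  let b : (G ⧸ A) → V := fun q => ρ (Quotient.out q) v
  have htop : Submodule.span ℂ (Set.range b) = ⊤ := by
    rw [eq_top_iff, ← span_orbit_eq_top ρ hρ hv, Submodule.span_le]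
    rintro _ ⟨g, rfl⟩
    simp only
    have hq : (QuotientGroup.mk g : G ⧸ A) = QuotientGroup.mk (Quotient.out (QuotientGroup.mk g : G ⧸ A)) :=
      (Quotient.out_eq _).symm
    have ha : (Quotient.out (QuotientGroup.mk g : G ⧸ A))⁻¹ * g ∈ A := by
      have := QuotientGroup.eq.mp hq.symm
      exact this
    obtain ⟨c, hc⟩ := hc _ ha
    have e : g = (Quotient.out (QuotientGroup.mk g : G ⧸ A)) * ((Quotient.out (QuotientGroup.mk g : G ⧸ A))⁻¹ * g) := by
      group
    rw [e, map_mul, Module.End.mul_apply, hc, map_smul]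
    exact Submodule.smul_mem _ _ (Submodule.subset_span ⟨_, rfl⟩)
  have h1 := finrank_range_le_card (R := ℂ) b
  rw [Set.finrank, htop, finrank_top] at h1
  rw [Subgroup.index_eq_card, Nat.card_eq_fintype_card]
  exact h1

end Cfsg.Agent.Lib.CharX.Abelian
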